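import Mathlib
import Cfsg.Agent.Lib.Helper56.TC

set_option autoImplicit false
set_option maxRecDepth 1000000

namespace Cfsg.Agent.Lib.Helper56.Fi24U0

open Cfsg.Agent.Lib.Helper56.TC Cfsg.Agent.Lib.Helper56.TC.Tabs

noncomputable def nA0 : List ℕ := [
0x222b0]

noncomputable def fA0 : List ℕ := [
0x340]

end Cfsg.Agent.Lib.Helper56.Fi24U0
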