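import Mathlib
import Cfsg.Agent.Lib.Helper56.TC
import Cfsg.Agent.Lib.Helper56.TCFast
import Cfsg.Agent.Lib.Helper56.Fi24U0.DA0
set_option autoImplicit false
set_option maxRecDepth 1000000

namespace Cfsg.Agent.Lib.Helper56.Fi24U0

open Cfsg.Agent.Lib.Helper56.TC Cfsg.Agent.Lib.Helper56.TC.Tabs

noncomputable def nA : List (List ℕ) := [nA0]

noncomputable def fA : List (List ℕ) := [fA0]

/-- The certificate data. -/
noncomputable def T : Tabs where
  K := 1
  N := 2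
  N' := 2
  INF := 1
  fuel := 1
  inv := fun l => l
  tg := slotFld2 nA 1820 9 511 1 4 5 1 (fun _ => 0)
  rk := slotFld2 nA 1820 9 511 1 4 6 1
    (fun x => Nat.rec (motive := fun _ => ℕ) 0 (fun _ _ => 1) x)
  jc := slotFld2 nA 1820 9 511 1 4 7 3
    (fun x => Nat.rec (motive := fun _ => ℕ) 3 (fun _ _ => 0) x)
  dd := fldA nA 1820 9 511 0 1
  dl := fldA nA 1820 9 511 1 1
  qj := fldA nA 1820 9 511 2 1
  mp := fldA nA 1820 9 511 3 1
  mt := fldA nA 1820 9 511 4 1
  tb := tbFld2 fA 2340 7 127 1 6 1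
  rels1 := []
  subs := []
  rx := []
  RB := 1
  tpl := fldA fA 2340 7 127 0 1
  tdep := fldA fA 2340 7 127 1 1
  ol := fldA fA 2340 7 127 2 1
  oc := fldA fA 2340 7 127 3 1
  op := fldA fA 2340 7 127 4 1
  odep := fldA fA 2340 7 127 5 1
  orep := fun c => Tabs.nth 0 [0, 1] c

end Cfsg.Agent.Lib.Helper56.Fi24U0
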